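import Mathlib

/-!
The fixed-point flag of a `p`-subgroup acting on a vector space of characteristic `p`.
-/

namespace Cfsg.Agent.KnownUnip

variable {F V : Type*} [Field F] [AddCommGroup V] [Module F V] {G : Type*} [Group G]

/-- the ascending series of fixed spaces -/
def fixSeries (R : G →* Module.End F V) (U : Subgroup G) : ℕ → Submodule F V
  | 0 => ⊥
  | i + 1 => ⨅ u : U, (fixSeries R U i).comap (R (u : G) - 1)

theorem mem_fixSeries_succ {R : G →* Module.End F V} {U : Subgroup G} {i : ℕ} {v : V} :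
    v ∈ fixSeries R U (i + 1) ↔ ∀ u ∈ U, R u v - v ∈ fixSeries R U i := by
  simp [fixSeries]

theorem fixSeries_le_succ (R : G →* Module.End F V) (U : Subgroup G) :
    ∀ i, fixSeries R U i ≤ fixSeries R U (i + 1)
  | 0 => bot_le
  | i + 1 => fun v hv => by
    rw [mem_fixSeries_succ] at hv ⊢
    exact fun u hu => fixSeries_le_succ R U i (hv u hu)

theorem fixSeries_normalizer (R : G →* Module.End F V) (U : Subgroup G) {g : G}
    (hg : g ∈ Subgroup.normalizer (U : Set G)) :
    ∀ i, ∀ v ∈ fixSeries R U i, R g v ∈ fixSeries R U i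
  | 0, v, hv => by
    simp only [fixSeries, Submodule.mem_bot] at hv ⊢
    rw [hv, map_zero]
  | i + 1, v, hv => by
    rw [mem_fixSeries_succ] at hv ⊢
    intro u hu
    have hu' : g⁻¹ * u * g ∈ U := by
      have := (Subgroup.mem_normalizer_iff.1 (inv_mem hg) u).1 hu
      simpa [mul_assoc] using this
    have h := fixSeries_normalizer R U hg i _ (hv _ hu')
    rw [map_sub, ← Module.End.mul_apply, ← map_mul, ← mul_assoc, ← mul_assoc, mul_inv_cancel,
      one_mul, map_mul, Module.End.mul_apply] at h
    exact h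

theorem fixSeries_lt_succ [Finite V] (p : ℕ) [Fact p.Prime] [CharP F p] (R : G →* Module.End F V)
    (U : Subgroup G) (hU : IsPGroup p ↥U) (i : ℕ) (hne : fixSeries R U i ≠ ⊤) :
    fixSeries R U i < fixSeries R U (i + 1) := by
  classical
  have hinv : ∀ u ∈ U, ∀ v ∈ fixSeries R U i, R u v ∈ fixSeries R U i := fun u hu v hv => by
    exact fixSeries_normalizer R U (Subgroup.le_normalizer hu) i v hv
  set W := fixSeries R U i with hW
  let Q : ↥U →* Module.End F (V ⧸ W) :=
    { toFun := fun u => W.mapQ W (R (u : G)) (fun v hv => hinv u u.2 v hv)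
      map_one' := LinearMap.ext fun x => Submodule.Quotient.induction_on _ x fun v => by simp
      map_mul' := fun a b => LinearMap.ext fun x => Submodule.Quotient.induction_on _ x fun v => by
        simp }
  letI : MulAction ↥U (V ⧸ W) := MulAction.compHom _ Q
  have hnt : Nontrivial (V ⧸ W) := Submodule.Quotient.nontrivial_iff.2 hne
  have : Finite (V ⧸ W) := Finite.of_surjective _ (Submodule.Quotient.mk_surjective W)
  have hdvd : p ∣ Nat.card (V ⧸ W) := by
    obtain ⟨x, hx⟩ := exists_ne (0 : V ⧸ W)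
    have hord : addOrderOf x = p := addOrderOf_eq_prime
      (by rw [← Nat.cast_smul_eq_nsmul F, CharP.cast_eq_zero, zero_smul]) hx
    exact hord ▸ addOrderOf_dvd_natCard x
  obtain ⟨x, hx, hx0⟩ := hU.exists_fixed_point_of_prime_dvd_card_of_fixed_point (α := V ⧸ W) hdvd
    (a := 0) (by
      rw [MulAction.mem_fixedPoints]
      intro u
      change Q u 0 = 0
      exact map_zero _)
  obtain ⟨v, rfl⟩ := Submodule.Quotient.mk_surjective W x
  refine lt_of_le_of_ne (fixSeries_le_succ R U i) fun h => hx0 ?_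
  symm
  rw [Submodule.Quotient.mk_eq_zero]
  change v ∈ W
  rw [h, mem_fixSeries_succ]
  intro u hu
  have h1 : Q ⟨u, hu⟩ (Submodule.Quotient.mk v) = Submodule.Quotient.mk v :=
    MulAction.mem_fixedPoints.1 hx ⟨u, hu⟩
  exact (Submodule.Quotient.eq W).1 h1

theorem exists_flag [Finite V] [FiniteDimensional F V] (p : ℕ) [Fact p.Prime] [CharP F p]
    (R : G →* Module.End F V) (hR : ∀ g, R g = 1 → g = 1)
    (U : Subgroup G) (hU : IsPGroup p ↥U) (hne : U ≠ ⊥) :
    ∃ (k : ℕ) (W : Fin (k + 2) → Submodule F V), 1 ≤ k ∧ StrictMono W ∧ W 0 = ⊥ ∧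
      W (Fin.last (k + 1)) = ⊤ ∧
      (∀ g ∈ Subgroup.normalizer (U : Set G), ∀ i, (W i).map (R g) = W i) ∧
      (∀ u ∈ U, ∀ i : Fin (k + 1), ∀ v ∈ W i.succ, R u v - v ∈ W (Fin.castSucc i)) := by
  classical
  have hex : ∃ N, fixSeries R U N = ⊤ := by
    by_contra! h
    have hgrow : ∀ i, i ≤ Module.finrank F (fixSeries R U i) := by
      intro i
      induction i with
      | zero => exact Nat.zero_le _
      | succ i ih =>
        have := Submodule.finrank_lt_finrank_of_lt (fixSeries_lt_succ p R U hU i (h i))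
        omega
    have h1 := hgrow (Module.finrank F V + 1)
    have h2 := Submodule.finrank_le (fixSeries R U (Module.finrank F V + 1))
    omega
  set N := Nat.find hex with hN
  have hNtop : fixSeries R U N = ⊤ := Nat.find_spec hex
  have hlt : ∀ i < N, fixSeries R U i < fixSeries R U (i + 1) := fun i hi =>
    fixSeries_lt_succ p R U hU i (Nat.find_min hex hi)
  have hN2 : 2 ≤ N := by
    by_contra h
    apply hne
    rw [Subgroup.eq_bot_iff_forall]
    intro u hu
    refine hR u (LinearMap.ext fun v => ?_)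
    have htop1 : fixSeries R U 1 = ⊤ := by
      rcases (show N = 0 ∨ N = 1 by omega) with h1 | h1
      · rw [eq_top_iff, ← hNtop, h1]; exact bot_le
      · rw [← h1]; exact hNtop
    have := (mem_fixSeries_succ (i := 0)).1 (htop1 ▸ Submodule.mem_top : v ∈ fixSeries R U 1) u hu
    simpa [fixSeries, sub_eq_zero] using this
  refine ⟨N - 1, fun i => fixSeries R U i, by omega, ?_, rfl, ?_, ?_, ?_⟩
  · exact Fin.strictMono_iff_lt_succ.2 fun i => by
      simpa using hlt i (by have := i.2; omega)
  · change fixSeries R U (N - 1 + 1) = ⊤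
    rwa [show N - 1 + 1 = N by omega]
  · intro g hg i
    apply le_antisymm
    · rintro _ ⟨v, hv, rfl⟩
      exact fixSeries_normalizer R U hg i v hv
    · intro v hv
      refine ⟨R g⁻¹ v, fixSeries_normalizer R U (inv_mem hg) i v hv, ?_⟩
      rw [← Module.End.mul_apply, ← map_mul, mul_inv_cancel, map_one, Module.End.one_apply]
  · intro u hu i v hv
    exact (mem_fixSeries_succ (i := (i : ℕ))).1 hv u hu

end Cfsg.Agent.KnownUnip
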